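-- Team project OELP (S5988), packages [CNT1] and [CNT2] (helper6).
import Mathlib
import Cfsg.Agent.Lib.Helper44.OElp.Defs
import Cfsg.Agent.Lib.Helper23.OHyp.Cnt

set_option autoImplicit false
open scoped MatrixGroups
open Matrix

namespace Cfsg.Agent.Lib.Helper6.OElp

open Cfsg.Agent.Lib.Helper23.OHyp Cfsg.Agent.Lib.Helper44.OElp

universe u

section
variable {F : Type u} [Field F] [Fintype F] {ι : Type} [Fintype ι] [DecidableEq ι]

theorem cnt_stdE {Q : (ι → F) → F} (hQ : Cfsg.Geo.IsNondegenerateQuadraticForm Q)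
    {r : ℕ} (hr : r.Prime) (hr2 : r ≠ 2) (hrq : ¬ r ∣ Fintype.card F)
    {x : GL ι F} (hx : x ∈ Cfsg.isometryGroup F Q) (hxr : x ^ r = 1) :
    StdE Q r (x : Matrix ι ι F) := by
  have hpow : (x : Matrix ι ι F) ^ r = 1 := by
    rw [← Units.val_pow_eq_pow_val, hxr]; rfl
  exact ⟨hQ, hr, hr2, hrq, natCast_ne_zero_of_not_dvd_card hr hrq, hpow, isom_of_mem hx⟩

theorem cnt_inv_of_le_fix {x : Matrix ι ι F} {W : Submodule F (ι → F)} (hle : W ≤ fixSp x) :
    Cfsg.Agent.Lib.Helper23.OHyp.Inv x W := by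
  have h3 := inv_sup (x := x) (W₀ := W) (W₁ := ⊥) hle (by unfold Cfsg.Agent.Lib.Helper23.OHyp.Inv; simp)
  simpa using h3

/-- For `m < c` the invariant elliptic `m`-spaces are those inside the fixed space. -/
theorem cnt_card_inv_eq (hFix : PkgCntFixE.{u}) {Q : (ι → F) → F} {r : ℕ} {x : GL ι F}
    (hS : StdE Q r (x : Matrix ι ι F)) {m : ℕ} (hmc : m < cc (Fintype.card F) r) :
    Nat.card {W : EllSp Q m // Cfsg.Agent.Lib.Helper23.OHyp.Inv (x : Matrix ι ι F) W.1} =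
      Nat.card {W : EllSp Q m // W.1 ≤ fixSp (x : Matrix ι ι F)} := by
  apply Nat.card_congr
  apply Equiv.subtypeEquivRight
  intro W
  constructor
  · intro hinv
    exact hFix F ι Q r _ hS W.1 W.2.2.1 hinv (by rw [W.2.1]; exact hmc)
  · intro hle
    exact cnt_inv_of_le_fix hle

end

/-- [CNT1] -/
theorem pkgCnt1_of (hPQ : PkgPlusQE.{u}) (hEx : PkgExistP.{u}) (hCong : PkgCongE.{u})
    (hFix : PkgCntFixE.{u}) (hIn : PkgCntInE.{u}) : PkgCnt1.{u} := by
  intro F _ _ d r hr hr2 hrq m hme hm2 hmc hmk hdvd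
  have hQ := (hPQ F d).1
  have hcpos : 0 < cc (Fintype.card F) r := cc_pos (ordI_pos hr hrq)
  have hcard : Fintype.card (Fin d ⊕ Fin d) = 2 * d := by simp [two_mul]
  have hX : ∃ x : GL (Fin d ⊕ Fin d) F, x ∈ Cfsg.isometryGroup F (Cfsg.quadFormPlus d F) ∧
      x ^ r = 1 ∧
      Module.finrank F (fixSp (x : Matrix (Fin d ⊕ Fin d) (Fin d ⊕ Fin d) F))
        < cc (Fintype.card F) r ∧
      m < Module.finrank F (fixSp (x : Matrix (Fin d ⊕ Fin d) (Fin d ⊕ Fin d) F)) := by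
    by_cases hcn : cc (Fintype.card F) r ≤ 2 * d
    · have hmodn := Nat.div_add_mod (2 * d) (cc (Fintype.card F) r)
      have hJ1 : 1 ≤ 2 * d / cc (Fintype.card F) r := Nat.div_pos hcn hcpos
      obtain ⟨x, hxiso, hxord, hxfix⟩ := hEx F d r hr hr2 hrq _ hJ1 (Nat.mul_div_le _ _)
        (by intro h; exfalso; omega)
      have hlt := Nat.mod_lt (2 * d) hcpos
      refine ⟨x, hxiso, ?_, ?_, ?_⟩
      · rw [← hxord]; exact pow_orderOf_eq_one x
      · omega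
      · omega
    · push Not at hcn
      have h1 : fixSp (((1 : GL (Fin d ⊕ Fin d) F)) :
          Matrix (Fin d ⊕ Fin d) (Fin d ⊕ Fin d) F) = ⊤ := by
        rw [Units.val_one]; exact fixSp_one
      refine ⟨1, one_mem _, one_pow r, ?_, ?_⟩
      · rw [h1, finrank_top, Module.finrank_fintype_fun_eq_card, hcard]; exact hcn
      · rw [h1, finrank_top, Module.finrank_fintype_fun_eq_card, hcard]
        rw [Nat.mod_eq_of_lt hcn] at hmk
        exact hmk
  obtain ⟨x, hxiso, hxr, hxlt, hxm⟩ := hX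
  have hS := cnt_stdE hQ hr hr2 hrq hxiso hxr
  have hcong := hCong F _ _ m r hr x hxiso hxr
  rw [cnt_card_inv_eq hFix hS hmc] at hcong
  have hnin := hIn F _ _ r _ hS m hme hm2 hxm hxlt
  have h0 : Nat.card (EllSp (Cfsg.quadFormPlus d F) m) % r = 0 := Nat.mod_eq_zero_of_dvd hdvd
  have h1 : Nat.card {W : EllSp (Cfsg.quadFormPlus d F) m //
      W.1 ≤ fixSp (x : Matrix (Fin d ⊕ Fin d) (Fin d ⊕ Fin d) F)} % r = 0 := by
    rw [← hcong]; exact h0
  exact hnin (Nat.dvd_of_mod_eq_zero h1)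

/-- [CNT2] -/
theorem pkgCnt2_of (hPQ : PkgPlusQE.{u}) (hEx : PkgExistP.{u}) (hCong : PkgCongE.{u})
    (hFix : PkgCntFixE.{u}) (hSplit : PkgSplitE.{u}) (hDiv : PkgDivE.{u}) (hSum : PkgSumE.{u}) :
    PkgCnt2.{u} := by
  intro F _ _ d r hr hr2 hrq m hme hm2 hie hmc hmk hodd hdvd
  obtain ⟨hQ, hPtop⟩ := hPQ F d
  have hipos := ordI_pos hr hrq
  have hcpos : 0 < cc (Fintype.card F) r := cc_pos hipos
  have hci : cc (Fintype.card F) r = ordI (Fintype.card F) r := cc_eq_of_even hie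
  have hcard : Fintype.card (Fin d ⊕ Fin d) = 2 * d := by simp [two_mul]
  have hmodn := Nat.div_add_mod (2 * d) (cc (Fintype.card F) r)
  have hJ1 : 1 ≤ 2 * d / cc (Fintype.card F) r := by
    rw [hci]
    obtain ⟨t, ht⟩ := hodd
    omega
  obtain ⟨x, hxiso, hxord, hxfix⟩ := hEx F d r hr hr2 hrq _ hJ1 (Nat.mul_div_le _ _)
    (by intro h; exfalso; omega)
  have hxr : x ^ r = 1 := by rw [← hxord]; exact pow_orderOf_eq_one x
  have hS := cnt_stdE hQ hr hr2 hrq hxiso hxr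
  have hD : Module.finrank F (fixSp (x : Matrix (Fin d ⊕ Fin d) (Fin d ⊕ Fin d) F)) = m := by
    omega
  obtain ⟨hCnd, hNnd, hperp, hcompl, hNinv, -⟩ := hSplit F _ _ r _ hS
  have hdimN : Module.finrank F (movSp (x : Matrix (Fin d ⊕ Fin d) (Fin d ⊕ Fin d) F))
      = cc (Fintype.card F) r * (2 * d / cc (Fintype.card F) r) := by
    have h1 := Submodule.finrank_add_eq_of_isCompl hcompl
    rw [Module.finrank_fintype_fun_eq_card, hcard] at h1
    omega
  obtain ⟨-, -, hstype⟩ := hSum F _ _ hQ _ _ hCnd hNnd hperp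
  rw [hcompl.sup_eq_top] at hstype
  have hCeven : Even (Module.finrank F
      (fixSp (x : Matrix (Fin d ⊕ Fin d) (Fin d ⊕ Fin d) F))) := by rw [hD]; exact hme
  have hNeven : Even (Module.finrank F
      (movSp (x : Matrix (Fin d ⊕ Fin d) (Fin d ⊕ Fin d) F))) := by
    rw [hdimN, hci]; exact Even.mul_right hie _
  have hiff := (hstype hCeven hNeven).mp hPtop
  obtain ⟨-, hNtype⟩ := hDiv F _ _ r _ hS _ le_rfl hNinv hNnd
  have hNnot : ¬ Plus (Cfsg.quadFormPlus d F)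
      (movSp (x : Matrix (Fin d ⊕ Fin d) (Fin d ⊕ Fin d) F)) := by
    rw [hNtype]
    rintro (h | h)
    · exact (Nat.not_odd_iff_even.mpr hie) h
    · rw [hdimN, hci, Nat.mul_div_cancel_left _ hipos] at h
      exact (Nat.not_even_iff_odd.mpr hodd) h
  have hCnot : ¬ Plus (Cfsg.quadFormPlus d F)
      (fixSp (x : Matrix (Fin d ⊕ Fin d) (Fin d ⊕ Fin d) F)) := fun h => hNnot (hiff.mp h)
  have hone : Nat.card {W : EllSp (Cfsg.quadFormPlus d F) m //
      Cfsg.Agent.Lib.Helper23.OHyp.Inv (x : Matrix (Fin d ⊕ Fin d) (Fin d ⊕ Fin d) F) W.1} = 1 := by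
    rw [Nat.card_eq_one_iff_unique]
    constructor
    · constructor
      rintro ⟨⟨W, hW⟩, hWinv⟩ ⟨⟨W', hW'⟩, hW'inv⟩
      have h1 : W ≤ fixSp (x : Matrix (Fin d ⊕ Fin d) (Fin d ⊕ Fin d) F) :=
        hFix F _ _ r _ hS W hW.2.1 hWinv (by rw [hW.1]; exact hmc)
      have h2 : W' ≤ fixSp (x : Matrix (Fin d ⊕ Fin d) (Fin d ⊕ Fin d) F) :=
        hFix F _ _ r _ hS W' hW'.2.1 hW'inv (by rw [hW'.1]; exact hmc)
      have h3 : W = fixSp (x : Matrix (Fin d ⊕ Fin d) (Fin d ⊕ Fin d) F) :=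
        Submodule.eq_of_le_of_finrank_eq h1 (by rw [hW.1, hD])
      have h4 : W' = fixSp (x : Matrix (Fin d ⊕ Fin d) (Fin d ⊕ Fin d) F) :=
        Submodule.eq_of_le_of_finrank_eq h2 (by rw [hW'.1, hD])
      apply Subtype.ext
      apply Subtype.ext
      show W = W'
      rw [h3, h4]
    · exact ⟨⟨⟨fixSp (x : Matrix (Fin d ⊕ Fin d) (Fin d ⊕ Fin d) F), hD, hCnd, hCnot⟩,
        cnt_inv_of_le_fix le_rfl⟩⟩
  have hcong := hCong F _ _ m r hr x hxiso hxr
  rw [hone] at hcong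
  have h0 : Nat.card (EllSp (Cfsg.quadFormPlus d F) m) % r = 0 := Nat.mod_eq_zero_of_dvd hdvd
  have h1 : Nat.card (EllSp (Cfsg.quadFormPlus d F) m) % r = 1 % r := hcong
  rw [h0, Nat.mod_eq_of_lt hr.one_lt] at h1
  exact absurd h1 (by norm_num)

end Cfsg.Agent.Lib.Helper6.OElp
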